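import Cfsg.Agent.H86.Alt.TwoE
import Cfsg.Agent.H86.AltRed
import Cfsg.Agent.H25.PairZero
import Cfsg.Agent.H25.SixZero
import Cfsg.Agent.H59.AW

set_option autoImplicit false

namespace Cfsg.Agent.H86.Alt5

open Equiv

abbrev A (n : ℕ) := alternatingGroup (Fin n)

def e55 : Fin 5 ⊕ Fin 5 ≃ Fin 10 := finSumFinEquiv
def e64 : Fin 6 ⊕ Fin 4 ≃ Fin 10 := finSumFinEquiv

def Phi : A 5 × A 5 →* A 10 where
  toFun g := ⟨e55.permCongr (Equiv.Perm.sumCongr (g.1 : Perm (Fin 5)) (g.2 : Perm (Fin 5))), by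
    rw [Perm.mem_alternatingGroup, Perm.sign_permCongr, Perm.sign_sumCongr,
      Perm.mem_alternatingGroup.mp g.1.2, Perm.mem_alternatingGroup.mp g.2.2, one_mul]⟩
  map_one' := by
    apply Subtype.ext; apply Equiv.ext; intro i
    obtain ⟨j, rfl⟩ := e55.surjective i
    rcases j with j | j <;> simp
  map_mul' := by
    intro g h
    apply Subtype.ext; apply Equiv.ext; intro i
    obtain ⟨j, rfl⟩ := e55.surjective i
    rcases j with j | j <;> simp

def Psi : A 6 × A 4 →* A 10 where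
  toFun g := ⟨e64.permCongr (Equiv.Perm.sumCongr (g.1 : Perm (Fin 6)) (g.2 : Perm (Fin 4))), by
    rw [Perm.mem_alternatingGroup, Perm.sign_permCongr, Perm.sign_sumCongr,
      Perm.mem_alternatingGroup.mp g.1.2, Perm.mem_alternatingGroup.mp g.2.2, one_mul]⟩
  map_one' := by
    apply Subtype.ext; apply Equiv.ext; intro i
    obtain ⟨j, rfl⟩ := e64.surjective i
    rcases j with j | j <;> simp
  map_mul' := by
    intro g h
    apply Subtype.ext; apply Equiv.ext; intro i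
    obtain ⟨j, rfl⟩ := e64.surjective i
    rcases j with j | j <;> simp

lemma Phi_inl (g : A 5 × A 5) (j : Fin 5) :
    ((Phi g : A 10) : Perm (Fin 10)) (e55 (Sum.inl j)) = e55 (Sum.inl ((g.1 : Perm (Fin 5)) j)) := by
  simp [Phi]

lemma Phi_inr (g : A 5 × A 5) (j : Fin 5) :
    ((Phi g : A 10) : Perm (Fin 10)) (e55 (Sum.inr j)) = e55 (Sum.inr ((g.2 : Perm (Fin 5)) j)) := by
  simp [Phi]

section
variable {V : Type*} [AddCommGroup V]

def Bad (ρ : A 10 →* AddMonoid.End V) : Prop :=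
  ∀ Y : Subgroup (A 10), ¬ Group.IsSolvable Y → ∀ v : V, (∀ y ∈ Y, ρ y v = v) → v = 0

lemma rho_mul {n : ℕ} (ρ : A n →* AddMonoid.End V) (a b : A n) (z : V) : ρ (a * b) z = ρ a (ρ b z) := by
  rw [map_mul]; rfl

lemma rho_one {n : ℕ} (ρ : A n →* AddMonoid.End V) (z : V) : ρ 1 z = z := by rw [map_one]; rfl

lemma rho_inv {n : ℕ} (ρ : A n →* AddMonoid.End V) {a : A n} {z : V} (h : ρ a z = z) : ρ a⁻¹ z = z := by
  conv_lhs => rw [← h]
  rw [← rho_mul, inv_mul_cancel, rho_one]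

lemma Bad.of_hom {ρ : A 10 →* AddMonoid.End V} (h : Bad ρ) {L : Type*} [Group L] (φ : L →* A 10)
    (hφ : Function.Injective φ) (hL : ¬ Group.IsSolvable L) (v : V) (hv : ∀ l, ρ (φ l) v = v) : v = 0 := by
  refine h φ.range ?_ v ?_
  · intro hs
    apply hL
    have : Function.Injective φ.rangeRestrict := MonoidHom.rangeRestrict_injective_iff.mpr hφ
    exact Group.isSolvable_of_isSolvable_injective this
  · rintro y ⟨l, rfl⟩
    exact hv l

lemma Bad.pair {ρ : A 10 →* AddMonoid.End V} (h : Bad ρ) (x y : A 10) (hx : x ^ 2 = 1) (hy : y ^ 3 = 1)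
    (hxy : (x * y) ^ 5 = 1) (hne : x ≠ 1) (v : V) (h1 : ρ x v = v) (h2 : ρ y v = v) : v = 0 := by
  refine h (Subgroup.closure {x, y}) (Alt2.ns x y hx hy 5 hxy (by decide) hne) v ?_
  intro u hu
  induction hu using Subgroup.closure_induction with
  | mem w hw =>
    rcases hw with rfl | rfl
    · exact h1
    · exact h2
  | one => exact rho_one ρ v
  | mul a b _ _ iha ihb => rw [rho_mul, ihb, iha]
  | inv a _ iha => exact rho_inv ρ iha

lemma Bad.conj {ρ : A 10 →* AddMonoid.End V} (h : Bad ρ) (g : A 10) :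
    Bad (ρ.comp (MulAut.conj g).toMonoidHom) := by
  intro Y hY v hv
  refine h.of_hom ((MulAut.conj g).toMonoidHom.comp Y.subtype) ?_ hY v ?_
  · exact (MulAut.conj g).injective.comp Subtype.val_injective
  · intro l
    exact hv l l.2

def a5 : A 5 := ⟨swap 0 1 * swap 2 3, Perm.mem_alternatingGroup.mpr (by decide)⟩
def b5 : A 5 := ⟨swap 0 2 * swap 1 3, Perm.mem_alternatingGroup.mpr (by decide)⟩
def c5 : A 5 := ⟨swap 0 1 * swap 1 2, Perm.mem_alternatingGroup.mpr (by decide)⟩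
/-- the 5-cycle (0 1 2 3 4) -/
def x5 : A 5 := ⟨swap 0 1 * swap 1 2 * swap 2 3 * swap 3 4, Perm.mem_alternatingGroup.mpr (by decide)⟩
def t5 : A 5 := ⟨swap 1 4 * swap 2 3, Perm.mem_alternatingGroup.mpr (by decide)⟩

lemma Phi_inj1 : Function.Injective (fun g : A 5 => Phi (g, 1)) := by
  intro g h e
  apply Subtype.ext; apply Equiv.ext; intro j
  have h1 := Phi_inl (g, 1) j
  have e' : Phi (g, 1) = Phi (h, 1) := e
  rw [e', Phi_inl (h, 1) j] at h1
  exact (Sum.inl_injective (e55.injective h1)).symm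

lemma Phi_inj2 : Function.Injective (fun g : A 5 => Phi (1, g)) := by
  intro g h e
  apply Subtype.ext; apply Equiv.ext; intro j
  have h1 := Phi_inr (1, g) j
  have e' : Phi (1, g) = Phi (1, h) := e
  rw [e', Phi_inr (1, h) j] at h1
  exact (Sum.inr_injective (e55.injective h1)).symm

lemma Bad.h1 {ρ : A 10 →* AddMonoid.End V} (h : Bad ρ) (v : V) (hv : ∀ g, (ρ.comp Phi) (g, 1) v = v) : v = 0 :=
  h.of_hom (Phi.comp (MonoidHom.inl (A 5) (A 5))) Phi_inj1 a5_not_solvable v hv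

lemma Bad.h2 {ρ : A 10 →* AddMonoid.End V} (h : Bad ρ) (v : V) (hv : ∀ g, (ρ.comp Phi) (1, g) v = v) : v = 0 :=
  h.of_hom (Phi.comp (MonoidHom.inr (A 5) (A 5))) Phi_inj2 a5_not_solvable v hv

/-- conjugation by `s` on `A 5` -/
def cj (s : Perm (Fin 5)) : A 5 →* A 5 where
  toFun g := ⟨s * g * s⁻¹, by
    rw [Perm.mem_alternatingGroup, map_mul, map_mul, Perm.mem_alternatingGroup.mp g.2, mul_one, map_inv,
      mul_inv_cancel]⟩
  map_one' := by apply Subtype.ext; simp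
  map_mul' := by intro a b; apply Subtype.ext; simp [mul_assoc]

lemma Bad.hd {ρ : A 10 →* AddMonoid.End V} (h : Bad ρ) (s : Perm (Fin 5)) (v : V)
    (hv : ∀ g h : A 5, (h : Perm (Fin 5)) = s * g * s⁻¹ → (ρ.comp Phi) (g, h) v = v) : v = 0 := by
  refine h.of_hom (Phi.comp ((MonoidHom.id (A 5)).prod (cj s))) ?_ a5_not_solvable v
    (fun g => hv g (cj s g) rfl)
  intro g k e
  apply Subtype.ext; apply Equiv.ext; intro j
  have h1 := Phi_inl (g, cj s g) j
  have e' : Phi (g, cj s g) = Phi (k, cj s k) := e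
  rw [e', Phi_inl (k, cj s k) j] at h1
  exact (Sum.inl_injective (e55.injective h1)).symm

theorem pairA (h5 : ∀ v : V, 5 • v = 0) {ρ : A 10 →* AddMonoid.End V} (h : Bad ρ) (v : V)
    (va : ρ (Phi (a5, 1)) v = v) (vb : ρ (Phi (b5, 1)) v = v) (va' : ρ (Phi (1, a5)) v = v)
    (vb' : ρ (Phi (1, b5)) v = v) (vc : ρ (Phi (c5, c5)) v = v) : v = 0 :=
  H25.PairZero.pair_zero (ρ.comp Phi) h5 h.h1 h.h2 h.hd a5 b5 c5 rfl rfl rfl v va vb va' vb' vc

theorem minusA (h5 : ∀ v : V, 5 • v = 0) {ρ : A 10 →* AddMonoid.End V} (h : Bad ρ) (v : V)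
    (vx : ρ (Phi (x5, 1)) v = v) (vt : ρ (Phi (t5, 1)) v = -v) (va : ρ (Phi (1, a5)) v = v)
    (vb : ρ (Phi (1, b5)) v = v) (vc : ρ (Phi (1, c5)) v = v) : v = 0 :=
  H59.AW.minus_zero' h5 (ρ.comp Phi) h.h2 h.hd x5 t5 a5 b5 c5 (by decide) (by decide) (by decide) (by decide)
    (by decide) v vx vt va vb vc

end

end Cfsg.Agent.H86.Alt5
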