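import Cfsg.Agent.H86.Alt.FiveA

set_option autoImplicit false

namespace Cfsg.Agent.H86.Alt5

open Equiv

universe u

def vf {n : ℕ} (f g : Fin n → Fin n) (h1 : ∀ i, g (f i) = i) (h2 : ∀ i, f (g i) = i) : Perm (Fin n) :=
  ⟨f, g, h1, h2⟩

def x6 : A 6 := ⟨vf ![1,2,3,4,0,5] ![4,0,1,2,3,5] (by decide) (by decide), Perm.mem_alternatingGroup.mpr (by decide)⟩
def t6 : A 6 := ⟨vf ![0,4,3,2,1,5] ![0,4,3,2,1,5] (by decide) (by decide), Perm.mem_alternatingGroup.mpr (by decide)⟩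
def w6 : A 6 := ⟨vf ![0,1,4,5,2,3] ![0,1,4,5,2,3] (by decide) (by decide), Perm.mem_alternatingGroup.mpr (by decide)⟩
def p6 : A 6 := ⟨vf ![0,2,1,4,3,5] ![0,2,1,4,3,5] (by decide) (by decide), Perm.mem_alternatingGroup.mpr (by decide)⟩
def q6 : A 6 := ⟨vf ![1,3,2,0,4,5] ![3,0,2,1,4,5] (by decide) (by decide), Perm.mem_alternatingGroup.mpr (by decide)⟩

def a4 : A 4 := ⟨swap 0 1 * swap 2 3, Perm.mem_alternatingGroup.mpr (by decide)⟩
def b4 : A 4 := ⟨swap 0 2 * swap 1 3, Perm.mem_alternatingGroup.mpr (by decide)⟩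
def c4 : A 4 := ⟨swap 0 1 * swap 1 2, Perm.mem_alternatingGroup.mpr (by decide)⟩

/-- the 5-cycle (5 6 7 8 9) -/
def g0 : A 10 := ⟨vf ![0,1,2,3,4,6,7,8,9,5] ![0,1,2,3,4,9,5,6,7,8] (by decide) (by decide),
  Perm.mem_alternatingGroup.mpr (by decide)⟩

lemma w6_sq : w6 ^ 2 = 1 := by decide
lemma xw_cube : (x6 * w6) ^ 3 = 1 := by decide
lemma wxw : (w6 * (x6 * w6)) ^ 5 = 1 := by decide
lemma w6_ne : w6 ≠ 1 := by decide
lemma p6_sq : p6 ^ 2 = 1 := by decide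
lemma q6_cube : q6 ^ 3 = 1 := by decide
lemma pq6 : (p6 * q6) ^ 5 = 1 := by decide
lemma p6_ne : p6 ≠ 1 := by decide

lemma g0x : g0 * Phi (x5, 1) * g0⁻¹ = Psi (x6, 1) := by decide
lemma g0t : g0 * Phi (t5, 1) * g0⁻¹ = Psi (t6, 1) := by decide
lemma g0a : g0 * Phi (1, a5) * g0⁻¹ = Psi (1, a4) := by decide
lemma g0b : g0 * Phi (1, b5) * g0⁻¹ = Psi (1, b4) := by decide
lemma g0c : g0 * Phi (1, c5) * g0⁻¹ = Psi (1, c4) := by decide

lemma Psi_inl (g : A 6 × A 4) (j : Fin 6) :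
    ((Psi g : A 10) : Perm (Fin 10)) (e64 (Sum.inl j)) = e64 (Sum.inl ((g.1 : Perm (Fin 6)) j)) := by
  simp [Psi]

lemma Psi_inj1 : Function.Injective (fun g : A 6 => Psi (g, 1)) := by
  intro g h e
  apply Subtype.ext; apply Equiv.ext; intro j
  have h1 := Psi_inl (g, 1) j
  have e' : Psi (g, 1) = Psi (h, 1) := e
  rw [e', Psi_inl (h, 1) j] at h1
  exact (Sum.inl_injective (e64.injective h1)).symm

def psi1 : A 6 →* A 10 := Psi.comp (MonoidHom.inl (A 6) (A 4))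

lemma psi1_inj : Function.Injective psi1 := Psi_inj1

section
variable {V : Type u} [AddCommGroup V]

lemma Bad.pair6 {ρ : A 10 →* AddMonoid.End V} (h : Bad ρ) (x y : A 6) (hx : x ^ 2 = 1) (hy : y ^ 3 = 1)
    (hxy : (x * y) ^ 5 = 1) (hne : x ≠ 1) (v : V) (h1 : ρ (Psi (x, 1)) v = v) (h2 : ρ (Psi (y, 1)) v = v) :
    v = 0 := by
  refine h.pair (psi1 x) (psi1 y) ?_ ?_ ?_ ?_ v h1 h2
  · rw [← map_pow, hx, map_one]
  · rw [← map_pow, hy, map_one]
  · rw [← map_mul, ← map_pow, hxy, map_one]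
  · intro h0
    exact hne (psi1_inj (h0.trans (map_one _).symm))

/-- vectors fixed by the second factor -/
def Mf (ρ : A 10 →* AddMonoid.End V) : AddSubgroup V where
  carrier := {v | ∀ g : A 4, ρ (Psi (1, g)) v = v}
  zero_mem' := fun g => map_zero _
  add_mem' := by
    intro a b ha hb g
    rw [map_add, ha g, hb g]
  neg_mem' := by
    intro a ha g
    rw [map_neg, ha g]

lemma Psi_comm (g : A 6) (k : A 4) : Psi (1, k) * Psi (g, 1) = Psi (g, 1) * Psi (1, k) := by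
  rw [← map_mul, ← map_mul]; simp

lemma Mf_stable (ρ : A 10 →* AddMonoid.End V) (g : A 6) (v : V) (hv : v ∈ Mf ρ) :
    ρ (Psi (g, 1)) v ∈ Mf ρ := by
  intro k
  rw [← rho_mul, Psi_comm, rho_mul, hv k]

/-- the action of `A 6` on `Mf ρ` -/
def sig (ρ : A 10 →* AddMonoid.End V) : A 6 →* AddMonoid.End (Mf ρ) where
  toFun g :=
    { toFun := fun v => ⟨ρ (Psi (g, 1)) v, Mf_stable ρ g v v.2⟩
      map_zero' := Subtype.ext (by simp)
      map_add' := fun a b => Subtype.ext (by simp) }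
  map_one' := by
    ext v
    show ρ (Psi (1, 1)) (v : V) = v
    have : Psi ((1 : A 6), (1 : A 4)) = 1 := map_one Psi
    rw [this]; exact rho_one ρ v
  map_mul' := by
    intro g h
    ext v
    show ρ (Psi (g * h, 1)) (v : V) = ρ (Psi (g, 1)) (ρ (Psi (h, 1)) v)
    rw [← rho_mul, ← map_mul]; simp

lemma sig_coe (ρ : A 10 →* AddMonoid.End V) (g : A 6) (v : Mf ρ) :
    ((sig ρ g v : Mf ρ) : V) = ρ (Psi (g, 1)) v := rfl

def SixSt : Prop := ∀ {M : Type u} [AddCommGroup M] [Finite M] (_h5 : ∀ v : M, 5 • v = 0)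
  (rho : A 6 →* AddMonoid.End M)
  (_hn : ∀ v : M, (∀ g : A 6, (g : Perm (Fin 6)) 5 = 5 → rho g v = v) → v = 0)
  (_he : ∀ v : M, rho x6 v = v → rho t6 v = v → rho w6 v = v → v = 0)
  (_hm : ∀ v : M, rho x6 v = v → rho t6 v = - v → v = 0), ∀ v : M, v = 0

theorem b_zero (hS : SixSt.{u}) [Finite V] (h5 : ∀ v : V, 5 • v = 0) {ρ : A 10 →* AddMonoid.End V} (h : Bad ρ)
    (v : V) (hv : ∀ g : A 4, ρ (Psi (1, g)) v = v) : v = 0 := by
  have key : ∀ w : Mf ρ, w = 0 := by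
    refine hS (fun w => Subtype.ext (by simpa using h5 (w : V))) (sig ρ) ?_ ?_ ?_
    · intro w hw
      apply Subtype.ext
      refine h.pair6 p6 q6 p6_sq q6_cube pq6 p6_ne w ?_ ?_
      · exact congrArg Subtype.val (hw p6 (by decide))
      · exact congrArg Subtype.val (hw q6 (by decide))
    · intro w hx ht hw
      apply Subtype.ext
      have hx' : ρ (Psi (x6, 1)) (w : V) = w := congrArg Subtype.val hx
      have hw' : ρ (Psi (w6, 1)) (w : V) = w := congrArg Subtype.val hw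
      refine h.pair6 w6 (x6 * w6) w6_sq xw_cube wxw w6_ne w hw' ?_
      have : Psi (x6 * w6, (1 : A 4)) = Psi (x6, 1) * Psi (w6, 1) := by
        rw [← map_mul]; simp
      rw [this, rho_mul, hw', hx']
    · intro w hx ht
      apply Subtype.ext
      have hx' : ρ (Psi (x6, 1)) (w : V) = w := congrArg Subtype.val hx
      have ht' : ρ (Psi (t6, 1)) (w : V) = -w := congrArg Subtype.val ht
      refine minusA h5 (h.conj g0) (w : V) ?_ ?_ ?_ ?_ ?_
      · show ρ (g0 * Phi (x5, 1) * g0⁻¹) (w : V) = w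
        rw [g0x]; exact hx'
      · show ρ (g0 * Phi (t5, 1) * g0⁻¹) (w : V) = -w
        rw [g0t]; exact ht'
      · show ρ (g0 * Phi (1, a5) * g0⁻¹) (w : V) = w
        rw [g0a]; exact w.2 a4
      · show ρ (g0 * Phi (1, b5) * g0⁻¹) (w : V) = w
        rw [g0b]; exact w.2 b4
      · show ρ (g0 * Phi (1, c5) * g0⁻¹) (w : V) = w
        rw [g0c]; exact w.2 c4
  exact congrArg Subtype.val (key ⟨v, hv⟩)

end

end Cfsg.Agent.H86.Alt5
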